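import Mathlib

/-! Recognition of outer automorphism groups from a projection on a cyclic group. -/

set_option autoImplicit false

namespace Cfsg.Agent.KnownB.Proj

open DihedralGroup

universe u

theorem dihedral_four_aut_pow (c : MulAut (DihedralGroup 4)) (x : DihedralGroup 4) :
    (c ^ 4) x = x := by
  have hr : ∀ y : DihedralGroup 4, y * y ≠ 1 → y = r 1 ∨ y = r 3 := by decide
  have hs : ∀ y : DihedralGroup 4, y * y = 1 → (∃ z, y * z ≠ z * y) → ∃ i, y = sr i := by decide
  have h1 : c (r 1) = r 1 ∨ c (r 1) = r 3 := hr _ (by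
    rw [← map_mul]
    exact fun h => absurd (c.injective (h.trans (map_one c).symm)) (by decide))
  obtain ⟨i, h0⟩ := hs (c (sr 0)) (by rw [← map_mul]; simp) ⟨c (r 1), by
    rw [← map_mul, ← map_mul]
    exact fun h => absurd (c.injective h) (by decide)⟩
  have hrot : ∀ k : ZMod 4, c (r k) = c (r 1) ^ k.val := fun k => by
    rw [← map_pow, r_one_pow, ZMod.natCast_zmod_val]
  have hsr : ∀ k : ZMod 4, c (sr k) = c (sr 0) * c (r 1) ^ k.val := fun k => by
    rw [← hrot, ← map_mul, sr_mul_r, zero_add]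
  show c (c (c (c x))) = x
  have key : ∀ (u : DihedralGroup 4) (j : ZMod 4), (u = r 1 ∨ u = r 3) → ∀ y : DihedralGroup 4,
      let g : DihedralGroup 4 → DihedralGroup 4 := fun x => match x with
        | r k => u ^ k.val
        | sr k => sr j * u ^ k.val
      g (g (g (g y))) = y := by
    rintro u j (rfl | rfl) y <;> revert j y <;> decide
  obtain ⟨u, hu⟩ : ∃ u, c (r 1) = u := ⟨_, rfl⟩
  rw [hu] at h1 hrot hsr
  have hg : ∀ y, c y = (fun x : DihedralGroup 4 => match x with
      | r k => u ^ k.val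
      | sr k => sr i * u ^ k.val) y := fun y => by
    cases y with
    | r k => exact hrot k
    | sr k => show c (sr k) = _; rw [hsr, h0]
  rw [hg x, hg, hg, hg]
  exact key _ i h1 x

theorem zmod_gen_zpow {n : ℕ} (z : Multiplicative (ZMod n)) :
    ∃ j : ℤ, z = Multiplicative.ofAdd (1 : ZMod n) ^ j := by
  obtain ⟨j, hj⟩ := ZMod.intCast_surjective (Multiplicative.toAdd z)
  refine ⟨j, Multiplicative.toAdd.injective ?_⟩
  simp [hj]

theorem zmod_gen_zpow_eq_one {n : ℕ} (j : ℤ)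
    (h : Multiplicative.ofAdd (1 : ZMod n) ^ j = 1) : (n : ℤ) ∣ j := by
  have := congrArg Multiplicative.toAdd h
  simp only [toAdd_zpow, toAdd_ofAdd, toAdd_one, zsmul_one] at this
  exact (ZMod.intCast_zmod_eq_zero_iff_dvd j n).mp this

/-- A dihedral kernel of order eight with an odd cyclic quotient splits off. -/
theorem out_dihedral {O : Type u} [Group O] {f : ℕ} (hf : Odd f)
    (π : O →* Multiplicative (ZMod f)) (hπ : Function.Surjective π)
    (e : π.ker ≃* DihedralGroup 4) :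
    Nonempty (O ≃* DihedralGroup 4 × Multiplicative (ZMod f)) := by
  haveI : NeZero f := ⟨by rintro rfl; simp at hf⟩
  set γ := Multiplicative.ofAdd (1 : ZMod f) with hγ
  obtain ⟨k, hk⟩ : ∃ k : ℕ, ((k * 8 : ℕ) : ZMod f) = 1 := by
    refine ⟨((8 : ℕ) : ZMod f)⁻¹.val, ?_⟩
    have hco : Nat.Coprime 8 f := by
      rw [show 8 = 2 ^ 3 from rfl]
      exact (Nat.coprime_two_left.mpr hf).pow_left 3
    rw [Nat.cast_mul, ZMod.natCast_zmod_val, mul_comm]
    exact ZMod.coe_mul_inv_eq_one _ hco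
  obtain ⟨t, ht⟩ := hπ (γ ^ k)
  set y := t ^ 8
  have hy : π y = γ := by
    rw [map_pow, ht, ← pow_mul]
    refine Multiplicative.toAdd.injective ?_
    simpa [hγ] using hk
  let c : MulAut (DihedralGroup 4) := MulAut.congr e (MulAut.conjNormal t)
  have hcomm : ∀ p : π.ker, Commute (p : O) y := fun p => by
    have h1 : ∀ d, ((MulAut.conjNormal t : MulAut π.ker) ^ 4) d = d := fun d => e.injective (by
      have := dihedral_four_aut_pow c (e d)
      rw [← map_pow] at this
      simpa using this)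
    have h2 : (MulAut.conjNormal y : MulAut π.ker) p = p := by
      rw [map_pow, show 8 = 4 * 2 from rfl, pow_mul, sq, MulAut.mul_apply, h1, h1]
    have h3 := congrArg Subtype.val h2
    rw [MulAut.conjNormal_apply, mul_inv_eq_iff_eq_mul] at h3
    exact h3.symm
  have hy8 : (y ^ f) ^ 1 = 1 := by
    have h1 : t ^ f ∈ π.ker := by
      rw [MonoidHom.mem_ker, map_pow]
      refine Multiplicative.toAdd.injective ?_
      simp
    have h2 : (⟨_, h1⟩ : π.ker) ^ 8 = 1 := e.injective (by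
      rw [map_pow, map_one]
      generalize e _ = d
      revert d
      decide)
    rw [pow_one, ← pow_mul, mul_comm, pow_mul]
    exact congrArg Subtype.val h2
  rw [pow_one] at hy8
  have hord : orderOf y = f := by
    refine Nat.dvd_antisymm (orderOf_dvd_of_pow_eq_one hy8) ?_
    have := congrArg π (pow_orderOf_eq_one y)
    rw [map_pow, hy, map_one, ← zpow_natCast] at this
    exact_mod_cast zmod_gen_zpow_eq_one _ this
  let ι : Multiplicative (ZMod f) →* O := AddMonoidHom.toMultiplicativeLeft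
    (ZMod.lift f ⟨zmultiplesHom _ (Additive.ofMul y), by
      show (f : ℤ) • Additive.ofMul y = 0
      rw [natCast_zsmul, ← ofMul_pow, hy8, ofMul_one]⟩)
  have hι : ι γ = y := by
    show Additive.toMul (ZMod.lift f _ (1 : ZMod f)) = y
    have h := ZMod.lift_coe f ⟨zmultiplesHom _ (Additive.ofMul y), by
      show (f : ℤ) • Additive.ofMul y = 0
      rw [natCast_zsmul, ← ofMul_pow, hy8, ofMul_one]⟩ (1 : ℤ)
    rw [Int.cast_one] at h
    rw [h]
    simp
  have hπι : ∀ z, π (ι z) = z := fun z => by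
    obtain ⟨j, rfl⟩ := zmod_gen_zpow z
    rw [map_zpow, map_zpow, hι, hy]
  let Ψ : π.ker × Multiplicative (ZMod f) →* O := π.ker.subtype.noncommCoprod ι fun p z => by
    obtain ⟨j, rfl⟩ := zmod_gen_zpow z
    rw [map_zpow, hι]
    exact (hcomm p).zpow_right j
  have hbij : Function.Bijective Ψ := by
    refine ⟨(injective_iff_map_eq_one Ψ).mpr ?_, fun o => ?_⟩
    · rintro ⟨p, z⟩ h
      change (p : O) * ι z = 1 at h
      have h1 := congrArg π h
      rw [map_mul, MonoidHom.mem_ker.mp p.2, one_mul, hπι, map_one] at h1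
      subst h1
      rw [map_one, mul_one] at h
      exact Prod.ext (Subtype.ext h) rfl
    · refine ⟨(⟨o * (ι (π o))⁻¹, by simp [MonoidHom.mem_ker, hπι]⟩, π o), ?_⟩
      show o * (ι (π o))⁻¹ * ι (π o) = o
      rw [inv_mul_cancel_right]
  exact ⟨(MulEquiv.ofBijective Ψ hbij).symm.trans (e.prodCongr (MulEquiv.refl _))⟩

/-- A Klein kernel centralised by a lift of doubled order. -/
theorem out_klein {O : Type u} [Group O] {f : ℕ} (hf : 1 ≤ f)
    (π : O →* Multiplicative (ZMod f)) (hker : Nat.card π.ker = 4) (δ φ : O)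
    (hφ : π φ = Multiplicative.ofAdd 1) (hδ : π δ = 1) (hδ2 : δ ^ 2 = 1) (hδ1 : δ ≠ 1)
    (hφ2 : φ ^ (2 * f) = 1) (hγ1 : φ ^ f ≠ 1) (hne : δ ≠ φ ^ f) (hc : Commute δ φ) :
    Nonempty (O ≃* Multiplicative (ZMod 2 × ZMod (2 * f))) := by
  haveI : NeZero f := ⟨by omega⟩
  haveI : Finite π.ker := Nat.finite_of_card_ne_zero (by omega)
  let α : ZMod 2 →+ Additive O := ZMod.lift 2 ⟨zmultiplesHom _ (Additive.ofMul δ), by
    show ((2 : ℕ) : ℤ) • Additive.ofMul δ = 0
    rw [natCast_zsmul, ← ofMul_pow, hδ2, ofMul_one]⟩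
  let β : ZMod (2 * f) →+ Additive O := ZMod.lift (2 * f) ⟨zmultiplesHom _ (Additive.ofMul φ), by
    show ((2 * f : ℕ) : ℤ) • Additive.ofMul φ = 0
    rw [natCast_zsmul, ← ofMul_pow, hφ2, ofMul_one]⟩
  have hα : ∀ i : ℤ, Additive.toMul (α i) = δ ^ i := fun i => by
    rw [show α i = zmultiplesHom _ (Additive.ofMul δ) i from ZMod.lift_coe 2 _ i]
    simp
  have hβ : ∀ i : ℤ, Additive.toMul (β i) = φ ^ i := fun i => by
    rw [show β i = zmultiplesHom _ (Additive.ofMul φ) i from ZMod.lift_coe (2 * f) _ i]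
    simp
  let Ψ : Multiplicative (ZMod 2 × ZMod (2 * f)) →* O := MonoidHom.mk'
    (fun z => Additive.toMul (α (Multiplicative.toAdd z).1) *
      Additive.toMul (β (Multiplicative.toAdd z).2)) fun z w => by
    obtain ⟨i, hi⟩ := ZMod.intCast_surjective (Multiplicative.toAdd z).1
    obtain ⟨j, hj⟩ := ZMod.intCast_surjective (Multiplicative.toAdd z).2
    obtain ⟨i', hi'⟩ := ZMod.intCast_surjective (Multiplicative.toAdd w).1
    obtain ⟨j', hj'⟩ := ZMod.intCast_surjective (Multiplicative.toAdd w).2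
    rw [toAdd_mul, Prod.fst_add, Prod.snd_add, ← hi, ← hj, ← hi', ← hj', ← Int.cast_add,
      ← Int.cast_add, hα, hα, hα, hβ, hβ, hβ, zpow_add, zpow_add]
    exact (((hc.zpow_zpow i' j).symm).mul_mul_mul_comm _ _).symm
  have hΨ : ∀ i j : ℤ, Ψ (Multiplicative.ofAdd ((i : ZMod 2), (j : ZMod (2 * f)))) =
      δ ^ i * φ ^ j := fun i j => by
    show Additive.toMul (α _) * Additive.toMul (β _) = _
    rw [← hα, ← hβ]; rfl
  have hγp : π (φ ^ f) = 1 := by
    rw [map_pow, hφ]; exact Multiplicative.toAdd.injective (by simp)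
  have hγ2 : φ ^ f * φ ^ f = 1 := by rw [← pow_add, ← two_mul, hφ2]
  have hδδ : δ * δ = 1 := by rw [← sq, hδ2]
  -- the kernel is `{1, δ, γ, δγ}`
  have hset : ∀ o, π o = 1 → o = 1 ∨ o = δ ∨ o = φ ^ f ∨ o = δ * φ ^ f := by
    intro o ho
    by_contra hcon
    push Not at hcon
    obtain ⟨h1, h2, h3, h4⟩ := hcon
    have hd : δ * φ ^ f ≠ 1 := fun h => hne ((eq_inv_of_mul_eq_one_left h).trans
      (inv_eq_of_mul_eq_one_left hγ2))
    let g : Fin 5 → π.ker := ![1, ⟨δ, hδ⟩, ⟨φ ^ f, hγp⟩,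
      ⟨δ * φ ^ f, by rw [MonoidHom.mem_ker, map_mul, hδ, hγp, one_mul]⟩, ⟨o, ho⟩]
    have hg : Function.Injective g := by
      intro a b hab
      fin_cases a <;> fin_cases b <;> simp [g, Subtype.ext_iff] at hab <;>
        first
          | rfl
          | (exfalso; first
              | exact hδ1 hab | exact hδ1 hab.symm | exact hγ1 hab | exact hγ1 hab.symm
              | exact hd hab | exact hd hab.symm | exact hne hab | exact hne hab.symm
              | exact h1 hab | exact h1 hab.symm | exact h2 hab | exact h2 hab.symm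
              | exact h3 hab | exact h3 hab.symm | exact h4 hab | exact h4 hab.symm)
    have := Nat.card_le_card_of_injective g hg
    rw [hker, Nat.card_fin] at this
    omega
  refine ⟨(MulEquiv.ofBijective Ψ ⟨(injective_iff_map_eq_one Ψ).mpr fun z hz => ?_, fun o => ?_⟩).symm⟩
  · obtain ⟨i, hi⟩ := ZMod.intCast_surjective (Multiplicative.toAdd z).1
    obtain ⟨j, hj⟩ := ZMod.intCast_surjective (Multiplicative.toAdd z).2
    have hz' : z = Multiplicative.ofAdd ((i : ZMod 2), (j : ZMod (2 * f))) := by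
      rw [hi, hj]; rfl
    rw [hz', hΨ] at hz
    have h1 := congrArg π hz
    rw [map_mul, map_zpow, map_zpow, hδ, one_zpow, one_mul, hφ, map_one π] at h1
    obtain ⟨l, rfl⟩ := zmod_gen_zpow_eq_one j h1
    rw [zpow_mul, zpow_natCast] at hz
    have hsq : ∀ (a : O), a * a = 1 → ∀ l : ℤ, (Even l ∧ a ^ l = 1) ∨ (Odd l ∧ a ^ l = a) := by
      intro a ha l
      rcases Int.even_or_odd l with ⟨t, rfl⟩ | ⟨t, rfl⟩
      · exact Or.inl ⟨⟨t, rfl⟩, by rw [← two_mul, zpow_mul, zpow_two, ha, one_zpow]⟩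
      · exact Or.inr ⟨⟨t, rfl⟩, by rw [zpow_add, zpow_mul, zpow_two, ha, one_zpow, one_mul, zpow_one]⟩
    rcases hsq δ hδδ i with ⟨hie, e1⟩ | ⟨-, e1⟩ <;>
      rcases hsq (φ ^ f) hγ2 l with ⟨hle, e2⟩ | ⟨-, e2⟩ <;> rw [e1, e2] at hz
    · rw [hz']
      obtain ⟨t, rfl⟩ := hie
      obtain ⟨t', rfl⟩ := hle
      have h02 : ((t + t : ℤ) : ZMod 2) = 0 :=
        (ZMod.intCast_zmod_eq_zero_iff_dvd _ 2).mpr ⟨t, by ring⟩
      have h0f : (((f : ℤ) * (t' + t') : ℤ) : ZMod (2 * f)) = 0 :=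
        (ZMod.intCast_zmod_eq_zero_iff_dvd _ _).mpr ⟨t', by push_cast; ring⟩
      rw [h02, h0f]; rfl
    · rw [one_mul] at hz; exact absurd hz hγ1
    · rw [mul_one] at hz; exact absurd hz hδ1
    · exact absurd ((eq_inv_of_mul_eq_one_left hz).trans (inv_eq_of_mul_eq_one_left hγ2)) hne
  · obtain ⟨j, hj⟩ := zmod_gen_zpow (π o)
    rcases hset (o * (φ ^ j)⁻¹) (by rw [map_mul, map_inv, map_zpow, hφ, hj, mul_inv_cancel])
      with h | h | h | h <;> rw [mul_inv_eq_iff_eq_mul] at h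
    · exact ⟨_, (hΨ 0 j).trans (by rw [h, zpow_zero])⟩
    · exact ⟨_, (hΨ 1 j).trans (by rw [h, zpow_one])⟩
    · exact ⟨_, (hΨ 0 (f + j)).trans (by rw [h, zpow_zero, one_mul, zpow_add, zpow_natCast])⟩
    · exact ⟨_, (hΨ 1 (f + j)).trans (by rw [h, zpow_one, zpow_add, zpow_natCast, mul_assoc])⟩

end Cfsg.Agent.KnownB.Proj
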